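import Cfsg.Agent.Lib.H10.NHN.Net
set_option autoImplicit false
set_option maxRecDepth 100000
set_option linter.all false
set_option Elab.async false
namespace H10.NHN
open H35.TC H35.Net
open H10.HNAlt (Lt)
theorem w_v3_0 : chkW net 21 [.z, .t, .z, .t, .z, .t] 1 0 2 = true := by decide +kernel
theorem w_v3_1 : chkW net 21 [.z, .t, .z, .t, .z, .t] 1 2 2 = true := by decide +kernel
theorem w_v3_2 : chkW net 21 [.z, .t, .z, .t, .z, .t] 1 4 2 = true := by decide +kernel
theorem w_v3_3 : chkW net 21 [.z, .t, .z, .t, .z, .t] 1 6 2 = true := by decide +kernel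
theorem w_v3_4 : chkW net 21 [.z, .t, .z, .t, .z, .t] 1 8 2 = true := by decide +kernel
theorem w_v3_5 : chkW net 21 [.z, .t, .z, .t, .z, .t] 1 10 2 = true := by decide +kernel
theorem w_v3_6 : chkW net 21 [.z, .t, .z, .t, .z, .t] 1 12 2 = true := by decide +kernel
theorem w_v3_7 : chkW net 21 [.z, .t, .z, .t, .z, .t] 1 14 2 = true := by decide +kernel
theorem w_v3_8 : chkW net 21 [.z, .t, .z, .t, .z, .t] 1 16 2 = true := by decide +kernel
theorem w_v3_9 : chkW net 21 [.z, .t, .z, .t, .z, .t] 1 18 2 = true := by decide +kernel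
theorem w_v3_10 : chkW net 21 [.z, .t, .z, .t, .z, .t] 1 20 1 = true := by decide +kernel
theorem w_v3 : ((([.z, .t, .z, .t, .z, .t] : List Lt).map π).prod) ^ 1 = 1 := by
  refine pow_eq_one hbp (k := 21) fun r hr => ?_
  rcases Nat.lt_or_ge r 2 with h0 | h0
  · exact chkW_spec w_v3_0 r (by omega) (by omega)
  rcases Nat.lt_or_ge r 4 with h1 | h1
  · exact chkW_spec w_v3_1 r (by omega) (by omega)
  rcases Nat.lt_or_ge r 6 with h2 | h2
  · exact chkW_spec w_v3_2 r (by omega) (by omega)
  rcases Nat.lt_or_ge r 8 with h3 | h3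
  · exact chkW_spec w_v3_3 r (by omega) (by omega)
  rcases Nat.lt_or_ge r 10 with h4 | h4
  · exact chkW_spec w_v3_4 r (by omega) (by omega)
  rcases Nat.lt_or_ge r 12 with h5 | h5
  · exact chkW_spec w_v3_5 r (by omega) (by omega)
  rcases Nat.lt_or_ge r 14 with h6 | h6
  · exact chkW_spec w_v3_6 r (by omega) (by omega)
  rcases Nat.lt_or_ge r 16 with h7 | h7
  · exact chkW_spec w_v3_7 r (by omega) (by omega)
  rcases Nat.lt_or_ge r 18 with h8 | h8
  · exact chkW_spec w_v3_8 r (by omega) (by omega)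
  rcases Nat.lt_or_ge r 20 with h9 | h9
  · exact chkW_spec w_v3_9 r (by omega) (by omega)
  exact chkW_spec w_v3_10 r (by omega) (by omega)
end H10.NHN
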