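import Cfsg.Agent.Lib.H10.NHN.Net
set_option autoImplicit false
set_option maxRecDepth 100000
set_option linter.all false
set_option Elab.async false
namespace H10.NHN
open H35.TC H35.Net
open H10.HNAlt (Lt)
theorem w_x0g_0 : chkW net 21 [.z, .t, .t, .z, .T, .z, .x, .y, .x, .y, .z, .Y, .X, .Y, .t, .z, .T, .T, .z, .y, .x, .y, .z, .Y, .X, .Y, .X, .z] 1 0 1 = true := by decide +kernel
theorem w_x0g_1 : chkW net 21 [.z, .t, .t, .z, .T, .z, .x, .y, .x, .y, .z, .Y, .X, .Y, .t, .z, .T, .T, .z, .y, .x, .y, .z, .Y, .X, .Y, .X, .z] 1 1 1 = true := by decide +kernel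
theorem w_x0g_2 : chkW net 21 [.z, .t, .t, .z, .T, .z, .x, .y, .x, .y, .z, .Y, .X, .Y, .t, .z, .T, .T, .z, .y, .x, .y, .z, .Y, .X, .Y, .X, .z] 1 2 1 = true := by decide +kernel
theorem w_x0g_3 : chkW net 21 [.z, .t, .t, .z, .T, .z, .x, .y, .x, .y, .z, .Y, .X, .Y, .t, .z, .T, .T, .z, .y, .x, .y, .z, .Y, .X, .Y, .X, .z] 1 3 1 = true := by decide +kernel
theorem w_x0g_4 : chkW net 21 [.z, .t, .t, .z, .T, .z, .x, .y, .x, .y, .z, .Y, .X, .Y, .t, .z, .T, .T, .z, .y, .x, .y, .z, .Y, .X, .Y, .X, .z] 1 4 1 = true := by decide +kernel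
theorem w_x0g_5 : chkW net 21 [.z, .t, .t, .z, .T, .z, .x, .y, .x, .y, .z, .Y, .X, .Y, .t, .z, .T, .T, .z, .y, .x, .y, .z, .Y, .X, .Y, .X, .z] 1 5 1 = true := by decide +kernel
theorem w_x0g_6 : chkW net 21 [.z, .t, .t, .z, .T, .z, .x, .y, .x, .y, .z, .Y, .X, .Y, .t, .z, .T, .T, .z, .y, .x, .y, .z, .Y, .X, .Y, .X, .z] 1 6 1 = true := by decide +kernel
theorem w_x0g_7 : chkW net 21 [.z, .t, .t, .z, .T, .z, .x, .y, .x, .y, .z, .Y, .X, .Y, .t, .z, .T, .T, .z, .y, .x, .y, .z, .Y, .X, .Y, .X, .z] 1 7 1 = true := by decide +kernel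
theorem w_x0g_8 : chkW net 21 [.z, .t, .t, .z, .T, .z, .x, .y, .x, .y, .z, .Y, .X, .Y, .t, .z, .T, .T, .z, .y, .x, .y, .z, .Y, .X, .Y, .X, .z] 1 8 1 = true := by decide +kernel
theorem w_x0g_9 : chkW net 21 [.z, .t, .t, .z, .T, .z, .x, .y, .x, .y, .z, .Y, .X, .Y, .t, .z, .T, .T, .z, .y, .x, .y, .z, .Y, .X, .Y, .X, .z] 1 9 1 = true := by decide +kernel
theorem w_x0g_10 : chkW net 21 [.z, .t, .t, .z, .T, .z, .x, .y, .x, .y, .z, .Y, .X, .Y, .t, .z, .T, .T, .z, .y, .x, .y, .z, .Y, .X, .Y, .X, .z] 1 10 1 = true := by decide +kernel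
theorem w_x0g_11 : chkW net 21 [.z, .t, .t, .z, .T, .z, .x, .y, .x, .y, .z, .Y, .X, .Y, .t, .z, .T, .T, .z, .y, .x, .y, .z, .Y, .X, .Y, .X, .z] 1 11 1 = true := by decide +kernel
theorem w_x0g_12 : chkW net 21 [.z, .t, .t, .z, .T, .z, .x, .y, .x, .y, .z, .Y, .X, .Y, .t, .z, .T, .T, .z, .y, .x, .y, .z, .Y, .X, .Y, .X, .z] 1 12 1 = true := by decide +kernel
theorem w_x0g_13 : chkW net 21 [.z, .t, .t, .z, .T, .z, .x, .y, .x, .y, .z, .Y, .X, .Y, .t, .z, .T, .T, .z, .y, .x, .y, .z, .Y, .X, .Y, .X, .z] 1 13 1 = true := by decide +kernel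
theorem w_x0g_14 : chkW net 21 [.z, .t, .t, .z, .T, .z, .x, .y, .x, .y, .z, .Y, .X, .Y, .t, .z, .T, .T, .z, .y, .x, .y, .z, .Y, .X, .Y, .X, .z] 1 14 1 = true := by decide +kernel
theorem w_x0g_15 : chkW net 21 [.z, .t, .t, .z, .T, .z, .x, .y, .x, .y, .z, .Y, .X, .Y, .t, .z, .T, .T, .z, .y, .x, .y, .z, .Y, .X, .Y, .X, .z] 1 15 1 = true := by decide +kernel
theorem w_x0g_16 : chkW net 21 [.z, .t, .t, .z, .T, .z, .x, .y, .x, .y, .z, .Y, .X, .Y, .t, .z, .T, .T, .z, .y, .x, .y, .z, .Y, .X, .Y, .X, .z] 1 16 1 = true := by decide +kernel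
theorem w_x0g_17 : chkW net 21 [.z, .t, .t, .z, .T, .z, .x, .y, .x, .y, .z, .Y, .X, .Y, .t, .z, .T, .T, .z, .y, .x, .y, .z, .Y, .X, .Y, .X, .z] 1 17 1 = true := by decide +kernel
theorem w_x0g_18 : chkW net 21 [.z, .t, .t, .z, .T, .z, .x, .y, .x, .y, .z, .Y, .X, .Y, .t, .z, .T, .T, .z, .y, .x, .y, .z, .Y, .X, .Y, .X, .z] 1 18 1 = true := by decide +kernel
theorem w_x0g_19 : chkW net 21 [.z, .t, .t, .z, .T, .z, .x, .y, .x, .y, .z, .Y, .X, .Y, .t, .z, .T, .T, .z, .y, .x, .y, .z, .Y, .X, .Y, .X, .z] 1 19 1 = true := by decide +kernel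
theorem w_x0g_20 : chkW net 21 [.z, .t, .t, .z, .T, .z, .x, .y, .x, .y, .z, .Y, .X, .Y, .t, .z, .T, .T, .z, .y, .x, .y, .z, .Y, .X, .Y, .X, .z] 1 20 1 = true := by decide +kernel
theorem w_x0g : ((([.z, .t, .t, .z, .T, .z, .x, .y, .x, .y, .z, .Y, .X, .Y, .t, .z, .T, .T, .z, .y, .x, .y, .z, .Y, .X, .Y, .X, .z] : List Lt).map π).prod) ^ 1 = 1 := by
  refine pow_eq_one hbp (k := 21) fun r hr => ?_
  rcases Nat.lt_or_ge r 1 with h0 | h0
  · exact chkW_spec w_x0g_0 r (by omega) (by omega)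
  rcases Nat.lt_or_ge r 2 with h1 | h1
  · exact chkW_spec w_x0g_1 r (by omega) (by omega)
  rcases Nat.lt_or_ge r 3 with h2 | h2
  · exact chkW_spec w_x0g_2 r (by omega) (by omega)
  rcases Nat.lt_or_ge r 4 with h3 | h3
  · exact chkW_spec w_x0g_3 r (by omega) (by omega)
  rcases Nat.lt_or_ge r 5 with h4 | h4
  · exact chkW_spec w_x0g_4 r (by omega) (by omega)
  rcases Nat.lt_or_ge r 6 with h5 | h5
  · exact chkW_spec w_x0g_5 r (by omega) (by omega)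
  rcases Nat.lt_or_ge r 7 with h6 | h6
  · exact chkW_spec w_x0g_6 r (by omega) (by omega)
  rcases Nat.lt_or_ge r 8 with h7 | h7
  · exact chkW_spec w_x0g_7 r (by omega) (by omega)
  rcases Nat.lt_or_ge r 9 with h8 | h8
  · exact chkW_spec w_x0g_8 r (by omega) (by omega)
  rcases Nat.lt_or_ge r 10 with h9 | h9
  · exact chkW_spec w_x0g_9 r (by omega) (by omega)
  rcases Nat.lt_or_ge r 11 with h10 | h10
  · exact chkW_spec w_x0g_10 r (by omega) (by omega)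
  rcases Nat.lt_or_ge r 12 with h11 | h11
  · exact chkW_spec w_x0g_11 r (by omega) (by omega)
  rcases Nat.lt_or_ge r 13 with h12 | h12
  · exact chkW_spec w_x0g_12 r (by omega) (by omega)
  rcases Nat.lt_or_ge r 14 with h13 | h13
  · exact chkW_spec w_x0g_13 r (by omega) (by omega)
  rcases Nat.lt_or_ge r 15 with h14 | h14
  · exact chkW_spec w_x0g_14 r (by omega) (by omega)
  rcases Nat.lt_or_ge r 16 with h15 | h15
  · exact chkW_spec w_x0g_15 r (by omega) (by omega)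
  rcases Nat.lt_or_ge r 17 with h16 | h16
  · exact chkW_spec w_x0g_16 r (by omega) (by omega)
  rcases Nat.lt_or_ge r 18 with h17 | h17
  · exact chkW_spec w_x0g_17 r (by omega) (by omega)
  rcases Nat.lt_or_ge r 19 with h18 | h18
  · exact chkW_spec w_x0g_18 r (by omega) (by omega)
  rcases Nat.lt_or_ge r 20 with h19 | h19
  · exact chkW_spec w_x0g_19 r (by omega) (by omega)
  exact chkW_spec w_x0g_20 r (by omega) (by omega)
end H10.NHN
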